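import Cfsg.Agent.H698.RIM.AltA
import Cfsg.Agent.H698.RIM.AltB
import Cfsg.Agent.H686.Spin.Data
import Cfsg.Agent.H665.RIM.Defs
import Cfsg.Agent.Blocks.Basic
import Cfsg.Agent.S0892

/-!
# S4816, RIM-ALT: the double covers of the alternating groups (helper698)

`row` : for `8 ≤ n`, an odd prime `p ≤ n`, `(n, p) ≠ (8, 5)`: every perfect central extension of `A_n` by a nontrivial group
has, over every faithful linear character of the kernel, an irreducible character of degree divisible by `p`.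
-/

set_option autoImplicit false
set_option linter.unusedSectionVars false

namespace Cfsg.Agent.H698.RIM

open Finset Cfsg Cfsg.Agent.H614 Cfsg.Agent.H614.Spin Cfsg.Agent.Characters.Core Cfsg.Agent.H886.Spin
open Cfsg.Agent.SporadicRecognition.AltCover
open Cfsg.Agent.H665.RIM
open scoped ComplexConjugate

universe u v

theorem exists_dvd_data {n p : ℕ} (hp : p.Prime) (hp2 : p ≠ 2) (hn : 2 ≤ n) {T : Type} [Group T] [Finite T]
    {P : T →* Equiv.Perm (Fin n)} {z : T} {b : T → ℂ} (h : H686.Spin.SpinData n P z b) {L : List ℤ}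
    (hL : Strict L) (hLs : L.sum = n) (hX : (p : ℤ) ∣ X (Multiset.replicate n 1) L)
    (hz : z ∈ ((alternatingGroup (Fin n)).comap P : Subgroup T)) :
    ∃ χ : ((alternatingGroup (Fin n)).comap P : Subgroup T) → ℂ,
      IsIrrCharacter ((alternatingGroup (Fin n)).comap P : Subgroup T) χ ∧ χ ⟨z, hz⟩ = - χ 1 ∧ p ∣ charDegree χ := by
  have := Fintype.ofFinite T
  have : Fintype ((alternatingGroup (Fin n)).comap P : Subgroup T) := Fintype.ofFinite _
  obtain ⟨χ, hχ, hχz, j, k, e, he, h1⟩ := exists_irr hn h.surj h.z_ne h.z_comm h.ker h.neg h.sq h.van h.divT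
    ((alternatingGroup (Fin n)).comap P) rfl (by
      intro m a ha
      obtain ⟨θ, h1, h2⟩ := h.divH m a ha
      refine ⟨θ, h1, fun x => ?_⟩
      rw [h2 x, add_assoc]) hz (L := L) hL hLs
  refine ⟨χ, hχ, hχz, ?_⟩
  obtain ⟨k', hk'⟩ := h.one_pos
  obtain ⟨c, hc⟩ := hX
  rw [Cfsg.Agent.Blocks.Basic.irr_one_eq_charDegree hχ, hk', hc] at h1
  obtain ⟨e', he'⟩ : ∃ e' : ℤ, e = e' := by
    rcases he with rfl | rfl
    · exact ⟨1, by simp⟩
    · exact ⟨-1, by simp⟩
  rw [he'] at h1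
  have h2 : (2 : ℤ) ^ j * (charDegree χ : ℤ) = e' * 2 ^ k * (2 ^ k' * (p * c)) := by exact_mod_cast h1
  have hP := Nat.prime_iff_prime_int.1 hp
  have h3 : (p : ℤ) ∣ 2 ^ j * (charDegree χ : ℤ) := ⟨e' * 2 ^ k * (2 ^ k' * c), by rw [h2]; ring⟩
  rcases hP.dvd_or_dvd h3 with h4 | h4
  · exfalso
    have h5 : p ∣ 2 ^ j := by exact_mod_cast h4
    exact hp2 ((Nat.prime_dvd_prime_iff_eq hp Nat.prime_two).1 (hp.dvd_of_dvd_pow h5))
  · exact_mod_cast h4

/-- the double cover -/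
theorem exists_dvd_cover {n p : ℕ} (hp : p.Prime) (hp2 : p ≠ 2) (hn : 8 ≤ n) (hpn : p ≤ n)
    (h85 : ¬ (n = 8 ∧ p = 5)) {H : Type*} [Group H] [Finite H] {π : H →* alternatingGroup (Fin n)} {z : H}
    (h : IsCover π z) : ∃ χ : H → ℂ, IsIrrCharacter H χ ∧ χ z = - χ 1 ∧ p ∣ charDegree χ := by
  obtain ⟨T, _, _, P, zT, b, ε, hs, -, hεz⟩ := H686.Spin.exists_spinData (by omega) h
  obtain ⟨L, hL, hLs, hX⟩ := exists_label_dvd hp hp2 hn hpn h85
  have hz : zT ∈ ((alternatingGroup (Fin n)).comap P : Subgroup T) := by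
    rw [← hεz]
    exact (ε z).2
  obtain ⟨χ, hχ, hχz, hd⟩ := exists_dvd_data hp hp2 (by omega) hs hL hLs hX hz
  refine ⟨fun x => χ (ε x), isIrr_comp ε.toMonoidHom ε.surjective hχ, ?_, ?_⟩
  · have h1 : ε z = ⟨zT, hz⟩ := Subtype.ext hεz
    show χ (ε z) = - χ (ε 1)
    rw [h1, hχz, map_one]
  · rw [Cfsg.Agent.Blocks.Basic.charDegree_def] at hd ⊢
    rwa [map_one]

section ext

variable {n : ℕ} {E : Type*} [Group E] [Finite E] {π : E →* alternatingGroup (Fin n)}

/-- the kernel has order two -/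
theorem exists_z (hn : 8 ≤ n) (surj : Function.Surjective π) (hc : π.ker ≤ Subgroup.center E)
    (hE : commutator E = ⊤) (hk : 2 ≤ Nat.card π.ker) :
    ∃ z : E, z ≠ 1 ∧ z * z = 1 ∧ ∀ x : E, π x = 1 ↔ x = 1 ∨ x = z := by
  have h1 := S0892.result n (by omega) (by omega) (by omega) π.ker hc (by rw [hE]; exact le_top)
    (QuotientGroup.quotientKerEquivOfSurjective π surj)
  have h2 : Nat.card π.ker = 2 := le_antisymm h1 hk
  obtain ⟨z, hz1, hz2⟩ := (Nat.card_eq_two_iff' (1 : π.ker)).1 h2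
  have h3 : ∀ x : E, π x = 1 ↔ x = 1 ∨ x = (z : E) := by
    intro x
    constructor
    · intro hx
      by_cases h4 : (⟨x, hx⟩ : π.ker) = 1
      · exact Or.inl (congrArg Subtype.val h4)
      · exact Or.inr (congrArg Subtype.val (hz2 _ h4))
    · rintro (rfl | rfl)
      · exact map_one _
      · exact z.2
  have hz1' : (z : E) ≠ 1 := fun h => hz1 (Subtype.ext h)
  refine ⟨z, hz1', ?_, h3⟩
  rcases (h3 (z * z)).1 (π.ker.mul_mem z.2 z.2) with h4 | h4
  · exact h4
  · exact absurd (mul_eq_left.1 h4) hz1'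

theorem isCover_of (surj : Function.Surjective π) (hc : π.ker ≤ Subgroup.center E)
    (hE : commutator E = ⊤) {z : E} (h1 : z ≠ 1) (h2 : z * z = 1) (h3 : ∀ x : E, π x = 1 ↔ x = 1 ∨ x = z) :
    IsCover π z where
  z_ne := h1
  z_mul := h2
  z_comm := fun x => Subgroup.mem_center_iff.1 (hc ((h3 z).2 (Or.inr rfl))) x
  surj := surj
  ker := h3
  nonsplit := fun s hs => by
    have hm : ∀ x : E, x * (s (π x))⁻¹ ∈ Subgroup.center E := fun x => hc (by
      rw [MonoidHom.mem_ker, map_mul, map_inv, hs, mul_inv_cancel])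
    let f : E →* Subgroup.center E := MonoidHom.mk' (fun x => ⟨x * (s (π x))⁻¹, hm x⟩) (by
      intro x y
      apply Subtype.ext
      change x * y * (s (π (x * y)))⁻¹ = x * (s (π x))⁻¹ * (y * (s (π y))⁻¹)
      rw [map_mul, map_mul, mul_inv_rev]
      have h4 := Subgroup.mem_center_iff.1 (hm y) (s (π x))⁻¹
      calc x * y * ((s (π y))⁻¹ * (s (π x))⁻¹) = x * (y * (s (π y))⁻¹ * (s (π x))⁻¹) := by group
        _ = x * ((s (π x))⁻¹ * (y * (s (π y))⁻¹)) := by rw [h4]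
        _ = _ := by group)
    have h4 : commutator E ≤ f.ker := by
      rw [commutator_def, Subgroup.commutator_le]
      intro x _ y _
      rw [MonoidHom.mem_ker, map_commutatorElement, commutatorElement_eq_one_iff_mul_comm]
      exact Subtype.ext (Subgroup.mem_center_iff.1 (f y).2 _)
    have h5 : f z = 1 := h4 (by rw [hE]; trivial)
    have h6 : z * (s (π z))⁻¹ = 1 := congrArg Subtype.val h5
    rw [(h3 z).2 (Or.inr rfl), map_one, inv_one, mul_one] at h6
    exact h1 h6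

end ext

/-- **RIM-ALT** -/
theorem row {n p : ℕ} (hp : p.Prime) (hp2 : p ≠ 2) (hn : 8 ≤ n) (hpn : p ≤ n) (h85 : ¬ (n = 8 ∧ p = 5))
    {S : Type u} [Group S] (e : S ≃* alternatingGroup (Fin n)) : NBall p S := by
  intro m hm _ E _ _ π hs hc hE hk l hl
  let π' : E →* alternatingGroup (Fin n) := e.toMonoidHom.comp π
  have hs' : Function.Surjective π' := e.surjective.comp hs
  have hker : π'.ker = π.ker := by
    ext x
    rw [MonoidHom.mem_ker, MonoidHom.mem_ker]
    exact e.map_eq_one_iff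
  obtain ⟨z, h1, h2, h3⟩ := exists_z hn hs' (by rw [hker]; exact hc) hE (by rw [hker]; omega)
  obtain ⟨χ, hχ, hχz, hd⟩ := exists_dvd_cover hp hp2 hn hpn h85 (isCover_of hs' (by rw [hker]; exact hc) hE h1 h2 h3)
  refine ⟨χ, hχ, ?_, hd⟩
  have hzk : z ∈ π.ker := by
    rw [← hker]
    exact (h3 z).2 (Or.inr rfl)
  have hlz : (l ⟨z, hzk⟩ : ℂ) = -1 := by
    have h4 : (⟨z, hzk⟩ : π.ker) * ⟨z, hzk⟩ = 1 := Subtype.ext h2
    have h5 : (l ⟨z, hzk⟩ : ℂ) * (l ⟨z, hzk⟩ : ℂ) = 1 := by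
      rw [← Units.val_mul, ← map_mul, h4, map_one, Units.val_one]
    have h6 : ((l ⟨z, hzk⟩ : ℂ) - 1) * ((l ⟨z, hzk⟩ : ℂ) + 1) = 0 := by linear_combination h5
    rcases mul_eq_zero.1 h6 with h7 | h7
    · exfalso
      apply h1
      have h8 : l ⟨z, hzk⟩ = 1 := Units.ext (by rw [Units.val_one]; linear_combination h7)
      have h9 : (⟨z, hzk⟩ : π.ker) = 1 := hl (by rw [h8, map_one])
      exact congrArg Subtype.val h9
    · linear_combination h7
  rintro ⟨x, hx⟩
  rcases (h3 x).1 (by rw [← MonoidHom.mem_ker, hker]; exact hx) with rfl | rfl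
  · have h4 : (⟨1, hx⟩ : π.ker) = 1 := rfl
    rw [h4, map_one, Units.val_one, mul_one]
    rfl
  · show χ x = χ 1 * (l ⟨x, hx⟩ : ℂ)
    rw [hlz, hχz]
    ring

end Cfsg.Agent.H698.RIM
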