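import Cfsg.Agent.H886.Spin.Class
import Cfsg.Agent.H87.Spin.Ones

/-!
# S4816, RIM-ALT, part A: the spin character with a given label (helper698)

* `exists_irr` : for each strict partition `L` of `n` there is an irreducible character `χ` of the double cover of `A_n` with
  `χ z = -χ 1` and `2 ^ j χ(1) = ± 2 ^ k b(1) g_L`.
* `exists_dvd` : if an odd prime divides `g_L`, then it divides the degree.
-/

set_option autoImplicit false
set_option linter.unusedSectionVars false

namespace Cfsg.Agent.H698.RIM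

open Finset Cfsg Cfsg.Agent.H614 Cfsg.Agent.H614.Spin Cfsg.Agent.Characters.Core Cfsg.Agent.H886.Spin
open scoped ComplexConjugate

/-- the spin character with a given label, abstract form -/
theorem exists_irr {n : ℕ} (hn : 2 ≤ n) {T : Type*} [Group T] [Fintype T]
    {P : T →* Equiv.Perm (Fin n)} {z : T} {b : T → ℂ} {c₀ : ℕ}
    (surj : Function.Surjective P) (z_ne : z ≠ 1) (z_comm : ∀ x, x * z = z * x)
    (ker : ∀ x, P x = 1 ↔ x = 1 ∨ x = z)
    (neg : ∀ x, b (z * x) = -b x)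
    (sq : ∀ x, (∀ i ∈ ty (P x), Odd i) → b x * conj (b x) = 2 ^ (Multiset.card (ty (P x)) + c₀))
    (van : ∀ x, ¬ (∀ i ∈ ty (P x), Odd i) → b x = 0)
    (divT : ∀ (m : ℕ) (a : Fin m → ℕ), ∑ j, a j = n → ∃ θ : T → ℂ, IsCharacter T θ ∧
      ∀ x, b x * cnt (P x) a = 2 ^ ((#{j | a j ≠ 0} + c₀) / 2) * θ x)
    (H : Subgroup T) (hH : H = (alternatingGroup (Fin n)).comap P) [Fintype H]
    (divH : ∀ (m : ℕ) (a : Fin m → ℕ), ∑ j, a j = n → ∃ θ : H → ℂ, IsCharacter H θ ∧
      ∀ x : H, b (x : T) * cnt (P (x : T)) a = 2 ^ ((#{j | a j ≠ 0} + (1 + c₀)) / 2) * θ x)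
    (hz : z ∈ H) {L : List ℤ} (hL : Strict' L) (hLs : L.sum = n) :
    ∃ χ : H → ℂ, IsIrrCharacter H χ ∧ χ ⟨z, hz⟩ = - χ 1 ∧ ∃ j k : ℕ, ∃ e : ℂ, (e = 1 ∨ e = -1) ∧
        (2 : ℂ) ^ j * χ 1 = e * 2 ^ k * (b 1 * (X (Multiset.replicate n 1) L : ℂ)) := by
  classical
  have hn0 : Nontrivial (Fin n) := Fin.nontrivial_iff_two_le.mpr hn
  have hindex : H.index = 2 := by
    rw [hH, Subgroup.index_comap_of_surjective _ surj, alternatingGroup.index_eq_two]
  have hnorm : H.Normal := Subgroup.normal_of_index_eq_two hindex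
  have hodd : ∀ x : T, (∀ i ∈ ty (P x), Odd i) → x ∈ H := by
    intro x hx
    rw [hH, Subgroup.mem_comap]; exact sign_of_odd hx
  have h1T : ∀ i ∈ ty (P (1 : T)), Odd i := by
    rw [map_one, ty_one]
    intro i hi; rw [Multiset.eq_of_mem_replicate hi]; exact odd_one
  have hb1 : b 1 ≠ 0 := by
    intro h
    have := sq 1 h1T
    rw [h, zero_mul] at this
    exact (pow_ne_zero _ (two_ne_zero : (2 : ℂ) ≠ 0)) this.symm
  have hpos : ∀ a ∈ L, 0 < a := hL.2
  have hnormT := norm_sum surj z_ne ker sq van hL hLs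
  have hcardT := card_T surj z_ne ker
  have hcardH : (Nat.card T : ℂ) = Nat.card H * 2 := by
    have := H.card_mul_index
    rw [hindex] at this
    exact_mod_cast this.symm
  have hnf : ((n.factorial : ℕ) : ℂ) ≠ 0 := by exact_mod_cast n.factorial_ne_zero
  have hcH : (Nat.card H : ℂ) = n.factorial := by
    have h := hcardT.symm.trans hcardH
    linear_combination -(1 / 2 : ℂ) * h
  have hsumH : ∀ F : T → ℂ, (∀ x, x ∉ H → F x = 0) → ∑ x : T, F x = ∑ x : H, F x := by
    intro F hF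
    rw [← Finset.sum_filter_of_ne (p := fun g => g ∈ H)]
    · rw [← Finset.sum_subtype (univ.filter fun g => g ∈ H) (p := fun g => g ∈ H) (by simp) F]
    · intro g _ hg
      by_contra hgN
      exact hg (hF g hgN)
  have hvan : ∀ x : T, x ∉ H → b x * (X (ty (P x)) L : ℂ) = 0 := by
    intro x hx
    rw [van x (fun h => hx (hodd x h)), zero_mul]
  have h2ne : ∀ k : ℕ, (2 : ℂ) ^ k ≠ 0 := fun k => pow_ne_zero _ two_ne_zero
  have hty1 : ty (P (1 : T)) = Multiset.replicate n 1 := by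
    rw [map_one, ty_one, Fintype.card_fin]
  have hPz : P z = 1 := (ker z).2 (Or.inr rfl)
  have hbz : b z = - b 1 := by
    have := neg 1
    rwa [mul_one] at this
  obtain ⟨t, ht⟩ : ∃ t : T, t ∉ H := by
    by_contra hcon
    push Not at hcon
    have h1 : H = ⊤ := (Subgroup.eq_top_iff' H).2 hcon
    rw [h1, Subgroup.index_top] at hindex
    omega
  rcases Nat.even_or_odd (L.length + c₀) with hpar | hpar
  · obtain ⟨θ, hθ1, hθ2⟩ := exists_theta P b c₀ divT hpos
    obtain ⟨k, hk⟩ := hpar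
    have hk2 : (L.length + c₀) / 2 = k := by omega
    rw [hk2] at hθ2
    have hθn : classInner θ θ = 1 := by
      rw [classInner_def, hcardT]
      have h3 : (2 : ℂ) ^ k * (2 : ℂ) ^ k * ∑ g : T, θ g * conj (θ g) =
          2 * n.factorial * 2 ^ (L.length + c₀) := by
        rw [← hnormT, Finset.mul_sum]
        refine Finset.sum_congr rfl fun x _ => ?_
        rw [hθ2 x, map_mul, map_pow, Complex.conj_ofNat]; ring
      rw [hk, pow_add] at h3
      have h4 : ∑ g : T, θ g * conj (θ g) = 2 * n.factorial := by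
        refine mul_left_cancel₀ (mul_ne_zero (h2ne k) (h2ne k)) ?_
        rw [h3]; ring
      rw [h4]
      exact inv_mul_cancel₀ (mul_ne_zero two_ne_zero hnf)
    have hθvan : ∀ x : T, x ∉ H → θ x = 0 := by
      intro x hx
      have := hθ2 x
      rw [hvan x hx] at this
      exact (mul_eq_zero.mp this.symm).resolve_left (h2ne k)
    have hθz : θ z = - θ 1 := by
      refine mul_left_cancel₀ (h2ne k) ?_
      rw [← hθ2, mul_neg, ← hθ2, hPz, hbz, map_one]
      ring
    -- the irreducible character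
    obtain ⟨e, ψ, he, hψ, hψe⟩ : ∃ (e : ℂ) (ψ : T → ℂ), (e = 1 ∨ e = -1) ∧ IsIrrCharacter T ψ ∧ ∀ x, ψ x = e * θ x := by
      rcases isIrr_of_generalized hθ1 hθn with hirr | hirr
      · exact ⟨1, θ, Or.inl rfl, hirr, fun x => (one_mul _).symm⟩
      · exact ⟨-1, -θ, Or.inr rfl, hirr, fun x => by rw [Pi.neg_apply]; ring⟩
    obtain ⟨χ, hχ, hinner⟩ : ∃ χ : H → ℂ, IsIrrCharacter H χ ∧ classInner (fun x : H => ψ x) χ ≠ 0 := by
      by_contra hcon
      push Not at hcon
      have h1 := classFunction_eq_zero (G := H) (f := fun x : H => ψ x)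
        (isCharacter_isClassFunction (Characters.Clifford.isCharacter_restrict H (isIrr_isCharacter hψ)))
        (fun χ hχ => hcon χ hχ)
      exact isIrr_apply_one_ne_zero hψ (congrFun h1 1)
    have h8 := fun x : H => restrict_sum H hindex hψ (fun g hg => by rw [hψe, hθvan g hg, mul_zero]) hχ hinner ht x
    have h9 := h8 1
    have h10 := h8 ⟨z, hz⟩
    have e1 : (MulAut.conjNormal t : MulAut H) ⟨z, hz⟩ = ⟨z, hz⟩ := by
      apply Subtype.ext
      rw [MulAut.conjNormal_apply]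
      show t * z * t⁻¹ = z
      rw [z_comm, mul_inv_cancel_right]
    rw [map_one] at h9
    rw [e1] at h10
    change ψ z = _ at h10
    change ψ 1 = _ at h9
    have hψz : ψ z = - ψ 1 := by rw [hψe, hψe, hθz]; ring
    refine ⟨χ, hχ, ?_, k + 1, 0, e, he, ?_⟩
    · linear_combination (-(1 / 2 : ℂ)) * h10 - (1 / 2 : ℂ) * h9 + (1 / 2 : ℂ) * hψz
    · have h11 := hθ2 1
      rw [hty1] at h11
      rw [h11]
      have h12 := hψe 1
      rw [h9] at h12
      rw [pow_succ]
      linear_combination (2 : ℂ) ^ k * h12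
  · obtain ⟨θ, hθ1, hθ2⟩ := exists_theta (fun x : H => P (x : T)) (fun x : H => b (x : T)) (1 + c₀)
      divH hpos
    obtain ⟨k, hk⟩ := hpar
    have hk2 : (L.length + (1 + c₀)) / 2 = k + 1 := by omega
    rw [hk2] at hθ2
    have hθn : classInner θ θ = 1 := by
      rw [classInner_def, hcH]
      have h3 : (2 : ℂ) ^ (k + 1) * (2 : ℂ) ^ (k + 1) * ∑ g : H, θ g * conj (θ g) =
          2 * n.factorial * 2 ^ (L.length + c₀) := by
        rw [← hnormT, hsumH, Finset.mul_sum]
        · refine Finset.sum_congr rfl fun x _ => ?_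
          rw [hθ2 x, map_mul, map_pow, Complex.conj_ofNat]; ring
        · intro x hx
          rw [hvan x hx, zero_mul]
      rw [hk] at h3
      have h4 : ∑ g : H, θ g * conj (θ g) = n.factorial := by
        refine mul_left_cancel₀ (mul_ne_zero (h2ne (k + 1)) (h2ne (k + 1))) ?_
        rw [h3]; ring
      rw [h4]
      exact inv_mul_cancel₀ hnf
    obtain ⟨e, ψ, he, hψ, hψe⟩ : ∃ (e : ℂ) (ψ : H → ℂ), (e = 1 ∨ e = -1) ∧ IsIrrCharacter H ψ ∧ ∀ x, ψ x = e * θ x := by
      rcases isIrr_of_generalized hθ1 hθn with hirr | hirr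
      · exact ⟨1, θ, Or.inl rfl, hirr, fun x => (one_mul _).symm⟩
      · exact ⟨-1, -θ, Or.inr rfl, hirr, fun x => by rw [Pi.neg_apply]; ring⟩
    have hθz : θ ⟨z, hz⟩ = - θ 1 := by
      refine mul_left_cancel₀ (h2ne (k + 1)) ?_
      have h5 := hθ2 ⟨z, hz⟩
      have h6 := hθ2 1
      simp only [Subgroup.coe_one, map_one] at h5 h6
      rw [hPz, hbz] at h5
      rw [mul_neg, ← h6, ← h5]
      ring
    refine ⟨ψ, hψ, by rw [hψe, hψe, hθz]; ring, k + 1, 0, e, he, ?_⟩
    have h11 := hθ2 1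
    simp only [Subgroup.coe_one] at h11
    rw [hty1] at h11
    rw [h11, hψe 1]
    ring

end Cfsg.Agent.H698.RIM
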